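import Mathlib
import Cfsg.Agent.Lib.Helper33.Breadth.Defs

set_option autoImplicit false

/-!
Project BREADTH (helper33): assembly of `PkgQ` and the final statement.
-/

namespace Cfsg.Agent.Lib.Helper33.Breadth

universe u

theorem eq_of_le_of_index_eq {G : Type u} [Group G] [Finite G] {M C : Subgroup G}
    (h : M ≤ C) (hi : M.index = C.index) : M = C := by
  have h1 := Subgroup.relIndex_mul_index h
  have hC0 : C.index ≠ 0 := Subgroup.index_ne_zero_of_finite
  have h2 : M.relIndex C = 1 := by
    rw [hi] at h1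
    have : M.relIndex C * C.index = 1 * C.index := by rw [h1, one_mul]
    exact Nat.eq_of_mul_eq_mul_right (Nat.pos_of_ne_zero hC0) this
  exact le_antisymm h (Subgroup.relIndex_eq_one.mp h2)

theorem exists_mem_not_mem {G : Type u} [Group G] [Finite G] {M C : Subgroup G}
    (hi : M.index = C.index) (hne : M ≠ C) : ∃ m ∈ M, m ∉ C := by
  by_contra h
  exact hne (eq_of_le_of_index_eq (fun x hx => by_contra fun hx' => h ⟨x, hx, hx'⟩) hi)

theorem arith_tri (b : ℕ) : (b + 1) + b * (b + 1) / 2 = (b + 1) * (b + 1 + 1) / 2 := by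
  have h : (b + 1) * (b + 1 + 1) = b * (b + 1) + 2 * (b + 1) := by ring
  rw [h, Nat.add_mul_div_left _ _ (by norm_num : 0 < 2)]
  ring

theorem pkgQ (hC1 : PkgCase1.{u}) (hDrop : PkgDrop.{u}) (hMono : PkgMono.{u})
    (hSub : PkgSubIdx.{u}) (hCard : PkgCommCard.{u}) (hStep : PkgStep.{u}) (hE : PkgE.{u}) :
    PkgQ.{u} := by
  have key : ∀ (b n : ℕ) (G : Type u) [Group G] [Finite G] (p : ℕ) [Fact p.Prime],
      IsPGroup p G → Nat.card G = n → ∀ (C : Subgroup G), C.index = p →
      (∀ z : G, z ∉ C → (Subgroup.centralizer ({z} : Set G)).index ≤ p ^ b) →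
      Nat.card (commutator G) ≤ p ^ (b * (b + 1) / 2) := by
    intro b
    induction b using Nat.strong_induction_on with
    | _ b IHb =>
    intro n
    induction n using Nat.strong_induction_on with
    | _ n IHn =>
    intro G _ _ p hp hG hn C hCi hz
    have hp1 : 1 < p := (Fact.out : p.Prime).one_lt
    by_cases hab : commutator G = ⊥
    · rw [hab, Subgroup.card_bot]
      exact Nat.one_le_pow _ _ (by omega)
    by_cases hCC : ⁅C, C⁆ = commutator G
    · obtain ⟨M, hMi, hMC, hMM⟩ := hE p hG C hCi hCC hab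
      have hlt : Nat.card ↥M < n := by
        have h1 := Subgroup.card_mul_index M
        rw [hMi, hn] at h1
        have hpos : 0 < Nat.card ↥M := Nat.card_pos
        nlinarith
      have h2 := IHn (Nat.card ↥M) hlt ↥M p (hG.to_subgroup M) rfl (C.subgroupOf M)
        (hSub p hG M C hMi hCi hMC)
        (fun z hzC => (hMono M z).trans (hz z (by simpa [Subgroup.mem_subgroupOf] using hzC)))
      rw [hCard M, hMM] at h2
      exact h2
    · obtain ⟨M, hMi, hMC, hcent⟩ := hC1 p hG C hCi hCC
      obtain ⟨m, hmM, hmC⟩ := exists_mem_not_mem (hMi.trans hCi.symm) hMC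
      obtain ⟨c, hcC, hcM⟩ := exists_mem_not_mem (hCi.trans hMi.symm) (Ne.symm hMC)
      have hdrop := hDrop p M ⟨m, hmM⟩ hMi (hcent m hmM hmC)
      have hb1 : 1 ≤ b := by
        by_contra hb0
        have hb0' : b = 0 := by omega
        have h3 := hz m hmC
        rw [hb0', pow_zero] at h3
        have h4 : (Subgroup.centralizer ({(⟨m, hmM⟩ : ↥M)} : Set ↥M)).index ≠ 0 :=
          Subgroup.index_ne_zero_of_finite
        have h5 : 0 < (Subgroup.centralizer ({(⟨m, hmM⟩ : ↥M)} : Set ↥M)).index :=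
          Nat.pos_of_ne_zero h4
        have h6 : (Subgroup.centralizer ({(⟨m, hmM⟩ : ↥M)} : Set ↥M)).index * p ≤ 1 := by
          rw [hdrop]; exact h3
        nlinarith
      obtain ⟨b', rfl⟩ : ∃ b', b = b' + 1 := ⟨b - 1, by omega⟩
      have hM' : Nat.card (commutator ↥M) ≤ p ^ (b' * (b' + 1) / 2) := by
        refine IHb b' (by omega) (Nat.card ↥M) ↥M p (hG.to_subgroup M) rfl (C.subgroupOf M)
          (hSub p hG M C hMi hCi hMC) (fun z hzC => ?_)
        have hzC' : (z : G) ∉ C := by simpa [Subgroup.mem_subgroupOf] using hzC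
        have h1 := hDrop p M z hMi (hcent z z.2 hzC')
        have h2 := hz z hzC'
        rw [← h1, pow_succ] at h2
        exact Nat.le_of_mul_le_mul_right h2 (by omega)
      rw [hCard M] at hM'
      have hgM : m * c ∉ M := fun h => hcM (by simpa using M.mul_mem (M.inv_mem hmM) h)
      have hgC : m * c ∉ C := fun h => hmC (by simpa using C.mul_mem h (C.inv_mem hcC))
      calc Nat.card (commutator G)
          ≤ (Subgroup.centralizer ({m * c} : Set G)).index * Nat.card ↥⁅M, M⁆ :=
            hStep p hG M (m * c) hMi hgM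
        _ ≤ p ^ (b' + 1) * p ^ (b' * (b' + 1) / 2) := Nat.mul_le_mul (hz _ hgC) hM'
        _ = p ^ ((b' + 1) * (b' + 1 + 1) / 2) := by rw [← pow_add, arith_tri]
  intro G _ _ p _ hG C hCi b hz
  exact key b (Nat.card G) G p hG rfl C hCi hz

theorem exists_index_eq_prime {G : Type u} [Group G] [Finite G] {p : ℕ} [Fact p.Prime]
    (hG : IsPGroup p G) (hnt : Nontrivial G) : ∃ C : Subgroup G, C.index = p := by
  have hp : p.Prime := Fact.out
  obtain ⟨k, hk⟩ := IsPGroup.iff_card.mp hG
  have hk1 : 1 ≤ k := by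
    by_contra h
    have : k = 0 := by omega
    rw [this, pow_zero] at hk
    have := Finite.one_lt_card_iff_nontrivial.mpr hnt
    omega
  obtain ⟨H, hH⟩ := Sylow.exists_subgroup_card_pow_prime_of_le_card (n := k - 1) hp hG
    (by rw [hk]; exact Nat.pow_le_pow_right hp.pos (by omega))
  refine ⟨H, ?_⟩
  have h1 := Subgroup.card_mul_index H
  rw [hH, hk] at h1
  have h2 : p ^ k = p ^ (k - 1) * p := by rw [← pow_succ]; congr 1; omega
  rw [h2] at h1
  exact Nat.eq_of_mul_eq_mul_left (pow_pos hp.pos _) h1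

theorem main_of_Q (hQ : PkgQ.{u}) {G : Type u} [Group G] [Finite G] {p : ℕ} [Fact p.Prime]
    (hG : IsPGroup p G) (b : ℕ)
    (hb : ∀ x : G, (Subgroup.centralizer ({x} : Set G)).index ≤ p ^ b) :
    Nat.card (commutator G) ≤ p ^ (b * (b + 1) / 2) := by
  have hp : p.Prime := Fact.out
  by_cases hnt : Nontrivial G
  · obtain ⟨C, hC⟩ := exists_index_eq_prime hG hnt
    exact hQ p hG C hC b (fun z _ => hb z)
  · rw [not_nontrivial_iff_subsingleton] at hnt
    have : Nat.card (commutator G) = 1 := Nat.card_unique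
    rw [this]
    exact Nat.one_le_pow _ _ hp.pos

end Cfsg.Agent.Lib.Helper33.Breadth
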