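import Mathlib
import Cfsg.Agent.Lib.Helper33.Breadth.Defs

set_option autoImplicit false

/-!
Project BREADTH (helper33): package [C1].
-/

namespace Cfsg.Agent.Lib.Helper33.Breadth

universe u

theorem exists_zpow_mul {G : Type u} [Group G] [Finite G] {p : ℕ} [Fact p.Prime]
    (C : Subgroup G) [C.Normal] (hCi : C.index = p) {m : G} (hm : m ∉ C) (x : G) :
    ∃ i : ℤ, ∃ c ∈ C, x = m ^ i * c := by
  have hcard : Nat.card (G ⧸ C) = p := by rw [← Subgroup.index_eq_card]; exact hCi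
  have hne : (QuotientGroup.mk m : G ⧸ C) ≠ 1 := by
    rwa [Ne, QuotientGroup.eq_one_iff]
  have htop := zpowers_eq_top_of_prime_card hcard hne
  have hx : (QuotientGroup.mk x : G ⧸ C) ∈ Subgroup.zpowers (QuotientGroup.mk m : G ⧸ C) := by
    rw [htop]; trivial
  obtain ⟨i, hi⟩ := Subgroup.mem_zpowers_iff.mp hx
  refine ⟨i, (m ^ i)⁻¹ * x, ?_, by group⟩
  have h2 : ((m ^ i : G) : G ⧸ C) = (x : G ⧸ C) := by
    rw [← hi]; rfl
  exact QuotientGroup.eq.mp h2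

theorem comm_of_gen {Q : Type u} [Group Q] (g : Q) (W : Set Q)
    (hWW : ∀ w ∈ W, ∀ w' ∈ W, w * w' = w' * w) (hWg : ∀ w ∈ W, w * g = g * w)
    (hgen : ∀ x : Q, ∃ i : ℤ, ∃ w ∈ W, x = g ^ i * w) (x y : Q) : x * y = y * x := by
  obtain ⟨i, w, hw, rfl⟩ := hgen x
  obtain ⟨j, w', hw', rfl⟩ := hgen y
  have h1 : Commute (g ^ i) (g ^ j) := (Commute.refl g).zpow_zpow i j
  have h2 : Commute (g ^ i) w' := ((show Commute w' g from hWg w' hw').symm).zpow_left i
  have h3 : Commute w (g ^ j) := (show Commute w g from hWg w hw).zpow_right j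
  have h4 : Commute w w' := hWW w hw w' hw'
  exact ((h1.mul_right h2).mul_left (h3.mul_right h4)).eq

theorem comm_le_of_quot_comm {G : Type u} [Group G] (K : Subgroup G) [K.Normal]
    (h : ∀ x y : G ⧸ K, x * y = y * x) : commutator G ≤ K := by
  rw [commutator_def, Subgroup.commutator_le]
  intro x _ y _
  have h1 := h (QuotientGroup.mk x) (QuotientGroup.mk y)
  have h2 : ((x * y * x⁻¹ * y⁻¹ : G) : G ⧸ K) = 1 := by
    have : ((x * y * x⁻¹ * y⁻¹ : G) : G ⧸ K) =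
        (x : G ⧸ K) * (y : G ⧸ K) * (x : G ⧸ K)⁻¹ * (y : G ⧸ K)⁻¹ := rfl
    rw [this, h1]; group
  rw [commutatorElement_def]
  exact (QuotientGroup.eq_one_iff _).mp h2

theorem pkgCase1 (hN : PkgNorm.{u}) (hT : PkgTwoMax.{u}) : PkgCase1.{u} := by
  intro G _ _ p _ hG C hCi hCC
  have hp : p.Prime := Fact.out
  have hCn : C.Normal := hN p hG C hCi
  have hKn : (⁅C, C⁆ : Subgroup G).Normal := Subgroup.commutator_normal C C
  have hKle : (⁅C, C⁆ : Subgroup G) ≤ commutator G := by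
    rw [commutator_def]; exact Subgroup.commutator_mono le_top le_top
  -- images of elements of `C` commute in `G ⧸ ⁅C, C⁆`
  have hCcomm : ∀ c ∈ C, ∀ c' ∈ C,
      (c : G ⧸ (⁅C, C⁆ : Subgroup G)) * (c' : G ⧸ (⁅C, C⁆ : Subgroup G)) = c' * c := by
    intro c hc c' hc'
    have h1 : c * c' * c⁻¹ * c'⁻¹ ∈ (⁅C, C⁆ : Subgroup G) := by
      have := Subgroup.commutator_mem_commutator (H₁ := C) (H₂ := C) hc hc'
      rwa [commutatorElement_def] at this
    have h2 : ((c * c' * c⁻¹ * c'⁻¹ : G) : G ⧸ (⁅C, C⁆ : Subgroup G)) = 1 :=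
      (QuotientGroup.eq_one_iff _).mpr h1
    have h3 : ((c * c' * c⁻¹ * c'⁻¹ : G) : G ⧸ (⁅C, C⁆ : Subgroup G)) =
        (c : G ⧸ (⁅C, C⁆ : Subgroup G)) * c' * (c : G ⧸ (⁅C, C⁆ : Subgroup G))⁻¹ *
          (c' : G ⧸ (⁅C, C⁆ : Subgroup G))⁻¹ := rfl
    rw [h3] at h2
    have h4 := mul_inv_eq_one.mp h2
    exact mul_inv_eq_iff_eq_mul.mp h4
  set Z : Subgroup G :=
    (Subgroup.center (G ⧸ (⁅C, C⁆ : Subgroup G))).comap (QuotientGroup.mk' _) with hZ
  have hZn : Z.Normal := by rw [hZ]; infer_instance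
  have hZmem : ∀ z : G, z ∈ Z ↔ ∀ q : G ⧸ (⁅C, C⁆ : Subgroup G),
      q * (z : G ⧸ (⁅C, C⁆ : Subgroup G)) = (z : G ⧸ (⁅C, C⁆ : Subgroup G)) * q := by
    intro z
    rw [hZ, Subgroup.mem_comap, Subgroup.mem_center_iff]
    rfl
  -- (i) `Z ≤ C`
  have hZC : Z ≤ C := by
    intro z hz
    by_contra hzC
    apply hCC
    refine le_antisymm hKle (comm_le_of_quot_comm _ ?_)
    refine comm_of_gen (z : G ⧸ (⁅C, C⁆ : Subgroup G))
      ((fun c : G => (c : G ⧸ (⁅C, C⁆ : Subgroup G))) '' (C : Set G)) ?_ ?_ ?_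
    · rintro _ ⟨c, hc, rfl⟩ _ ⟨c', hc', rfl⟩
      exact hCcomm c hc c' hc'
    · rintro _ ⟨c, hc, rfl⟩
      exact (hZmem z).mp hz _
    · intro q
      obtain ⟨x, rfl⟩ := QuotientGroup.mk_surjective q
      obtain ⟨i, c, hc, rfl⟩ := exists_zpow_mul C hCi hzC x
      exact ⟨i, _, ⟨c, hc, rfl⟩, rfl⟩
  -- (ii) `G ⧸ Z` is not cyclic
  have hncyc : ¬ IsCyclic (G ⧸ Z) := by
    intro hcyc
    obtain ⟨q, hq⟩ := hcyc.exists_generator
    obtain ⟨g, rfl⟩ := QuotientGroup.mk_surjective q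
    apply hCC
    refine le_antisymm hKle (comm_le_of_quot_comm _ ?_)
    refine comm_of_gen (g : G ⧸ (⁅C, C⁆ : Subgroup G))
      ((fun c : G => (c : G ⧸ (⁅C, C⁆ : Subgroup G))) '' (Z : Set G)) ?_ ?_ ?_
    · rintro _ ⟨c, hc, rfl⟩ _ ⟨c', hc', rfl⟩
      exact ((hZmem c').mp hc' _)
    · rintro _ ⟨c, hc, rfl⟩
      exact ((hZmem c).mp hc _).symm
    · intro q
      obtain ⟨x, rfl⟩ := QuotientGroup.mk_surjective q
      obtain ⟨i, hi⟩ := Subgroup.mem_zpowers_iff.mp (hq (x : G ⧸ Z))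
      have h2 : ((g ^ i : G) : G ⧸ Z) = (x : G ⧸ Z) := by rw [← hi]; rfl
      have h3 : (g ^ i)⁻¹ * x ∈ Z := QuotientGroup.eq.mp h2
      refine ⟨i, _, ⟨(g ^ i)⁻¹ * x, h3, rfl⟩, ?_⟩
      have : x = g ^ i * ((g ^ i)⁻¹ * x) := by group
      conv_lhs => rw [this]
      rfl
  -- the second maximal subgroup
  have hDi : (C.map (QuotientGroup.mk' Z)).index = p := by
    rw [Subgroup.index_map_eq C (QuotientGroup.mk'_surjective Z) (by simpa using hZC)]
    exact hCi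
  obtain ⟨Mb, hMbi, hMbD⟩ := hT p (hG.to_quotient Z) hncyc (C.map (QuotientGroup.mk' Z)) hDi
  refine ⟨Mb.comap (QuotientGroup.mk' Z), ?_, ?_, ?_⟩
  · rw [Subgroup.index_comap_of_surjective _ (QuotientGroup.mk'_surjective Z)]
    exact hMbi
  · intro h
    apply hMbD
    rw [← h, Subgroup.map_comap_eq_self_of_surjective (QuotientGroup.mk'_surjective Z)]
  · intro m hmM hmC x hx
    have hZM : Z ≤ Mb.comap (QuotientGroup.mk' Z) := by
      intro z hz
      rw [Subgroup.mem_comap]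
      have : (QuotientGroup.mk' Z) z = 1 := (QuotientGroup.eq_one_iff z).mpr hz
      rw [this]; exact Mb.one_mem
    obtain ⟨i, c, hc, rfl⟩ := exists_zpow_mul C hCi hmC x
    have hxm : m * (m ^ i * c) = m ^ i * c * m :=
      (Subgroup.mem_centralizer_singleton_iff.mp hx).symm
    have hcm : Commute c m := by
      have h0 : m ^ i * m = m * m ^ i := ((Commute.refl m).zpow_left i).eq
      have h1 : m ^ i * (m * c) = m ^ i * (c * m) := by
        calc m ^ i * (m * c) = m ^ i * m * c := (mul_assoc _ _ _).symm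
          _ = m * m ^ i * c := by rw [h0]
          _ = m * (m ^ i * c) := mul_assoc _ _ _
          _ = m ^ i * c * m := hxm
          _ = m ^ i * (c * m) := mul_assoc _ _ _
      exact (mul_left_cancel h1).symm
    have hcZ : c ∈ Z := by
      rw [hZmem]
      intro q
      obtain ⟨y, rfl⟩ := QuotientGroup.mk_surjective q
      obtain ⟨j, c', hc', rfl⟩ := exists_zpow_mul C hCi hmC y
      have e1 : ((m ^ j * c' : G) : G ⧸ (⁅C, C⁆ : Subgroup G)) =
          ((m ^ j : G) : G ⧸ (⁅C, C⁆ : Subgroup G)) * (c' : G ⧸ (⁅C, C⁆ : Subgroup G)) := rfl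
      have e2 : ((m ^ j : G) : G ⧸ (⁅C, C⁆ : Subgroup G)) * (c : G ⧸ (⁅C, C⁆ : Subgroup G)) =
          (c : G ⧸ (⁅C, C⁆ : Subgroup G)) * ((m ^ j : G) : G ⧸ (⁅C, C⁆ : Subgroup G)) := by
        have : m ^ j * c = c * m ^ j := ((hcm.zpow_right j).eq).symm
        have h5 := congrArg (fun t : G => (t : G ⧸ (⁅C, C⁆ : Subgroup G))) this
        exact h5
      rw [e1, mul_assoc, hCcomm c' hc' c hc, ← mul_assoc, e2, mul_assoc]
    have h1 : m ^ i ∈ Mb.comap (QuotientGroup.mk' Z) := Subgroup.zpow_mem _ hmM i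
    exact Subgroup.mul_mem _ h1 (hZM hcZ)

end Cfsg.Agent.Lib.Helper33.Breadth
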