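import Cfsg.Agent.Lib.Helper33.Breadth.Asm
import Cfsg.Agent.Lib.Helper33.Breadth.Case1
import Cfsg.Agent.Lib.Helper1.Breadth.SepG
import Cfsg.Agent.Lib.Helper34.Breadth.AbStep
import Cfsg.Agent.Lib.Helper34.Breadth.Step
import Cfsg.Agent.Lib.Helper43.Breadth.TwoMax
import Cfsg.Agent.Lib.Helper48.Breadth.Lin
import Cfsg.Agent.Lib.Helper67.Breadth.E3
import Cfsg.Agent.Lib.Helper72.Breadth.E
import Cfsg.Agent.Lib.Helper77.Breadth.Ker
import Cfsg.Agent.Lib.Helper77.Breadth.KerIdx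
import Cfsg.Agent.Lib.Helper77.Breadth.Sep
import Cfsg.Agent.Lib.Helper84.Breadth.ChiefK
import Cfsg.Agent.Lib.Helper97.Breadth.Mono
import Cfsg.Agent.Lib.Helper97.Breadth.Norm

set_option autoImplicit false

/-!
Project BREADTH (helper33): all packages assembled; Vaughan-Lee's breadth theorem.
-/

namespace Cfsg.Agent.Lib.Helper33.Breadth

universe u

theorem pkgEThm : PkgE.{u} :=
  Cfsg.Agent.Lib.Helper72.Breadth.pkgE
    (Cfsg.Agent.Lib.Helper48.Breadth.pkgLin Cfsg.Agent.Lib.Helper67.Breadth.pkgE3)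
    (Cfsg.Agent.Lib.Helper1.Breadth.pkgSepG Cfsg.Agent.Lib.Helper84.Breadth.pkgChiefK
      Cfsg.Agent.Lib.Helper77.Breadth.pkgSep)
    Cfsg.Agent.Lib.Helper77.Breadth.pkgKer Cfsg.Agent.Lib.Helper77.Breadth.pkgKerIdx
    Cfsg.Agent.Lib.Helper97.Breadth.pkgNorm

theorem pkgQThm : PkgQ.{u} :=
  pkgQ (pkgCase1 Cfsg.Agent.Lib.Helper97.Breadth.pkgNorm Cfsg.Agent.Lib.Helper43.Breadth.pkgTwoMax)
    Cfsg.Agent.Lib.Helper97.Breadth.pkgDrop Cfsg.Agent.Lib.Helper97.Breadth.pkgMono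
    Cfsg.Agent.Lib.Helper97.Breadth.pkgSubIdx Cfsg.Agent.Lib.Helper97.Breadth.pkgCommCard
    (Cfsg.Agent.Lib.Helper34.Breadth.pkgStep Cfsg.Agent.Lib.Helper97.Breadth.pkgNorm
      Cfsg.Agent.Lib.Helper34.Breadth.pkgAbStep)
    pkgEThm

/-- Vaughan-Lee's breadth theorem. -/
theorem breadth_theorem {G : Type u} [Group G] [Finite G] {p : ℕ} [Fact p.Prime]
    (hG : IsPGroup p G) (b : ℕ)
    (hb : ∀ x : G, (Subgroup.centralizer ({x} : Set G)).index ≤ p ^ b) :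
    Nat.card (commutator G) ≤ p ^ (b * (b + 1) / 2) :=
  main_of_Q pkgQThm hG b hb

end Cfsg.Agent.Lib.Helper33.Breadth
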